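import Mathlib

/-!
`GL₄(𝔽₂)` on packed vectors: vectors of `F⁴` (`F` a field with two elements) are packed
into numbers below 16, matrices into numbers below 65536 (column `j` in bits `4j..4j+3`).
-/

set_option autoImplicit false

namespace Cfsg.Agent.Lib.Helper60.GL42

/-- action of a packed matrix on a packed vector -/
def actC (c x : ℕ) : ℕ :=
  ((c &&& 15) * (x &&& 1)) ^^^ (((c >>> 4) &&& 15) * ((x >>> 1) &&& 1)) ^^^
  (((c >>> 8) &&& 15) * ((x >>> 2) &&& 1)) ^^^ (((c >>> 12) &&& 15) * ((x >>> 3) &&& 1))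

theorem bit_eq (x j : ℕ) : (x >>> j) &&& 1 = if x.testBit j then 1 else 0 := by
  rw [Nat.and_one_is_mod, Nat.shiftRight_eq_div_pow, Nat.testBit_eq_decide_div_mod_eq]
  rcases Nat.mod_two_eq_zero_or_one (x / 2 ^ j) with h | h <;> simp [h]

theorem bit_eq0 (x : ℕ) : x &&& 1 = if x.testBit 0 then 1 else 0 := by
  have := bit_eq x 0
  simpa using this

theorem actC_lt (c x : ℕ) : actC c x < 16 := by
  have hb : ∀ A B : ℕ, (A &&& 15) * (B &&& 1) < 2 ^ 4 := by
    intro A B
    have h1 : A &&& 15 ≤ 15 := Nat.and_le_right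
    have h2 : B &&& 1 ≤ 1 := Nat.and_le_right
    calc (A &&& 15) * (B &&& 1) ≤ 15 * 1 := Nat.mul_le_mul h1 h2
      _ < 2 ^ 4 := by norm_num
  unfold actC
  exact Nat.xor_lt_two_pow (Nat.xor_lt_two_pow (Nat.xor_lt_two_pow (hb _ _) (hb _ _)) (hb _ _))
    (hb _ _)

section field

variable {F : Type*} [Field F]

/-- the vector with packed value `x` -/
def vec (x : ℕ) : Fin 4 → F := fun i => if x.testBit i then 1 else 0

theorem vec_zero : (vec 0 : Fin 4 → F) = 0 := by
  funext i; simp [vec]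

theorem vec_xor (h2 : (1 : F) + 1 = 0) (x y : ℕ) :
    (vec (x ^^^ y) : Fin 4 → F) = vec x + vec y := by
  funext i
  simp only [vec, Nat.testBit_xor, Pi.add_apply]
  cases x.testBit i <;> cases y.testBit i <;> simp [h2]

theorem vec_mul_bit (A x j : ℕ) :
    (vec (A * ((x >>> j) &&& 1)) : Fin 4 → F) = if x.testBit j then vec A else 0 := by
  rw [bit_eq]
  cases x.testBit j <;> simp [vec_zero]

theorem vec_mul_bit0 (A x : ℕ) :
    (vec (A * (x &&& 1)) : Fin 4 → F) = if x.testBit 0 then vec A else 0 := by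
  rw [bit_eq0]
  cases x.testBit 0 <;> simp [vec_zero]

theorem vec_actC (h2 : (1 : F) + 1 = 0) (c x : ℕ) :
    (vec (actC c x) : Fin 4 → F) =
      (if x.testBit 0 then vec (c &&& 15) else 0) +
      (if x.testBit 1 then vec ((c >>> 4) &&& 15) else 0) +
      (if x.testBit 2 then vec ((c >>> 8) &&& 15) else 0) +
      (if x.testBit 3 then vec ((c >>> 12) &&& 15) else 0) := by
  unfold actC
  rw [vec_xor h2, vec_xor h2, vec_xor h2, vec_mul_bit0, vec_mul_bit, vec_mul_bit, vec_mul_bit]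

theorem vec_eq (x : ℕ) : (vec x : Fin 4 → F) =
    (if x.testBit 0 then Pi.single 0 1 else 0) + (if x.testBit 1 then Pi.single 1 1 else 0) +
    (if x.testBit 2 then Pi.single 2 1 else 0) + (if x.testBit 3 then Pi.single 3 1 else 0) := by
  funext i
  fin_cases i <;> simp [vec] <;> split_ifs <;> simp

theorem vec_one : (vec 1 : Fin 4 → F) = Pi.single 0 1 := by
  rw [vec_eq]; simp [show Nat.testBit 1 1 = false from rfl, show Nat.testBit 1 2 = false from rfl,
    show Nat.testBit 1 3 = false from rfl]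

theorem vec_two : (vec 2 : Fin 4 → F) = Pi.single 1 1 := by
  rw [vec_eq]; simp [show Nat.testBit 2 0 = false from rfl, show Nat.testBit 2 1 = true from rfl,
    show Nat.testBit 2 2 = false from rfl, show Nat.testBit 2 3 = false from rfl]

theorem vec_four : (vec 4 : Fin 4 → F) = Pi.single 2 1 := by
  rw [vec_eq]; simp [show Nat.testBit 4 0 = false from rfl, show Nat.testBit 4 1 = false from rfl,
    show Nat.testBit 4 2 = true from rfl, show Nat.testBit 4 3 = false from rfl]

theorem vec_eight : (vec 8 : Fin 4 → F) = Pi.single 3 1 := by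
  rw [vec_eq]; simp [show Nat.testBit 8 0 = false from rfl, show Nat.testBit 8 1 = false from rfl,
    show Nat.testBit 8 2 = false from rfl, show Nat.testBit 8 3 = true from rfl]

/-- a matrix acts on packed vectors through the packed value of its columns -/
theorem mulVec_vec (h2 : (1 : F) + 1 = 0) (M : Matrix (Fin 4) (Fin 4) F) (c : ℕ)
    (h0 : M.mulVec (vec 1) = vec (c &&& 15)) (h1 : M.mulVec (vec 2) = vec ((c >>> 4) &&& 15))
    (h4 : M.mulVec (vec 4) = vec ((c >>> 8) &&& 15))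
    (h8 : M.mulVec (vec 8) = vec ((c >>> 12) &&& 15)) (x : ℕ) :
    M.mulVec (vec x) = vec (actC c x) := by
  rw [vec_actC h2, ← h0, ← h1, ← h4, ← h8, vec_one, vec_two, vec_four, vec_eight]
  conv_lhs => rw [vec_eq]
  rw [Matrix.mulVec_add, Matrix.mulVec_add, Matrix.mulVec_add]
  cases x.testBit 0 <;> cases x.testBit 1 <;> cases x.testBit 2 <;> cases x.testBit 3 <;>
    simp

theorem vec_inj {x y : ℕ} (hx : x < 16) (hy : y < 16) (h : (vec x : Fin 4 → F) = vec y) :
    x = y := by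
  apply Nat.eq_of_testBit_eq
  intro i
  by_cases hi : i < 4
  · have := congrFun h ⟨i, hi⟩
    simp only [vec] at this
    cases hxi : x.testBit i <;> cases hyi : y.testBit i <;> simp [hxi, hyi] at this <;> rfl
  · have h16 : (16 : ℕ) ≤ 2 ^ i := by
      calc (16 : ℕ) = 2 ^ 4 := by norm_num
        _ ≤ 2 ^ i := Nat.pow_le_pow_right (by norm_num) (by omega)
    rw [Nat.testBit_lt_two_pow (by omega), Nat.testBit_lt_two_pow (by omega)]

theorem vec_surj [Fintype F] (hF : Fintype.card F = 2) (v : Fin 4 → F) :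
    ∃ x, x < 16 ∧ vec x = v := by
  classical
  have hinj : Function.Injective (fun x : Fin 16 => (vec (x : ℕ) : Fin 4 → F)) := by
    intro x y h
    exact Fin.ext (vec_inj x.2 y.2 h)
  have hbij := (Fintype.bijective_iff_injective_and_card _).mpr
    ⟨hinj, by simp [hF]⟩
  obtain ⟨x, hx⟩ := hbij.2 v
  exact ⟨x, x.2, hx⟩

theorem vec_ne_zero {x : ℕ} (hx : x < 16) (h0 : x ≠ 0) : (vec x : Fin 4 → F) ≠ 0 := by
  intro h
  rw [← vec_zero] at h
  exact h0 (vec_inj hx (by norm_num) h)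

/-- every matrix has a packed value -/
theorem exists_code [Fintype F] (hF : Fintype.card F = 2) (h2 : (1 : F) + 1 = 0)
    (M : Matrix (Fin 4) (Fin 4) F) :
    ∃ c, c < 65536 ∧ ∀ x, M.mulVec (vec x) = vec (actC c x) := by
  obtain ⟨c0, hc0, e0⟩ := vec_surj hF (M.mulVec (vec 1))
  obtain ⟨c1, hc1, e1⟩ := vec_surj hF (M.mulVec (vec 2))
  obtain ⟨c2, hc2, e2⟩ := vec_surj hF (M.mulVec (vec 4))
  obtain ⟨c3, hc3, e3⟩ := vec_surj hF (M.mulVec (vec 8))
  refine ⟨c0 + 16 * c1 + 256 * c2 + 4096 * c3, by omega, ?_⟩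
  have k0 : (c0 + 16 * c1 + 256 * c2 + 4096 * c3) &&& 15 = c0 := by
    rw [show (15 : ℕ) = 2 ^ 4 - 1 from rfl, Nat.and_two_pow_sub_one_eq_mod]; omega
  have k1 : ((c0 + 16 * c1 + 256 * c2 + 4096 * c3) >>> 4) &&& 15 = c1 := by
    rw [show (15 : ℕ) = 2 ^ 4 - 1 from rfl, Nat.and_two_pow_sub_one_eq_mod,
      Nat.shiftRight_eq_div_pow]; omega
  have k2 : ((c0 + 16 * c1 + 256 * c2 + 4096 * c3) >>> 8) &&& 15 = c2 := by
    rw [show (15 : ℕ) = 2 ^ 4 - 1 from rfl, Nat.and_two_pow_sub_one_eq_mod,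
      Nat.shiftRight_eq_div_pow]; omega
  have k3 : ((c0 + 16 * c1 + 256 * c2 + 4096 * c3) >>> 12) &&& 15 = c3 := by
    rw [show (15 : ℕ) = 2 ^ 4 - 1 from rfl, Nat.and_two_pow_sub_one_eq_mod,
      Nat.shiftRight_eq_div_pow]; omega
  exact mulVec_vec h2 M _ (by rw [k0, e0]) (by rw [k1, e1]) (by rw [k2, e2]) (by rw [k3, e3])

/-- matrices agreeing on the four basis vectors are equal -/
theorem mat_ext (M N : Matrix (Fin 4) (Fin 4) F)
    (h0 : M.mulVec (vec 1) = N.mulVec (vec 1)) (h1 : M.mulVec (vec 2) = N.mulVec (vec 2))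
    (h4 : M.mulVec (vec 4) = N.mulVec (vec 4)) (h8 : M.mulVec (vec 8) = N.mulVec (vec 8)) :
    M = N := by
  rw [vec_one, Matrix.mulVec_single_one, Matrix.mulVec_single_one] at h0
  rw [vec_two, Matrix.mulVec_single_one, Matrix.mulVec_single_one] at h1
  rw [vec_four, Matrix.mulVec_single_one, Matrix.mulVec_single_one] at h4
  rw [vec_eight, Matrix.mulVec_single_one, Matrix.mulVec_single_one] at h8
  ext i j
  fin_cases j
  · exact congrFun h0 i
  · exact congrFun h1 i
  · exact congrFun h4 i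
  · exact congrFun h8 i

/-- the matrix with packed value `c` -/
def matOf (c : ℕ) : Matrix (Fin 4) (Fin 4) F :=
  Matrix.of fun i j => (vec ((c >>> (4 * (j : ℕ))) &&& 15) : Fin 4 → F) i

theorem matOf_mulVec (h2 : (1 : F) + 1 = 0) (c x : ℕ) :
    (matOf c : Matrix (Fin 4) (Fin 4) F).mulVec (vec x) = vec (actC c x) := by
  apply mulVec_vec h2
  · rw [vec_one, Matrix.mulVec_single_one]; funext i; simp [matOf, Matrix.col]
  · rw [vec_two, Matrix.mulVec_single_one]; funext i; simp [matOf, Matrix.col]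
  · rw [vec_four, Matrix.mulVec_single_one]; funext i; simp [matOf, Matrix.col]
  · rw [vec_eight, Matrix.mulVec_single_one]; funext i; simp [matOf, Matrix.col]

end field

end Cfsg.Agent.Lib.Helper60.GL42
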