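import Cfsg.Agent.Lib.Helper60.GL42.Tab

/-!
Every subgroup of `GL₄(𝔽₂)` whose order is divisible by 5 and by 7 is 2-transitive on the
15 non-zero vectors.
-/

set_option autoImplicit false

namespace Cfsg.Agent.Lib.Helper60.GL42

open Matrix

section

variable {F : Type*} [Field F]

/-- action on vectors -/
def act (g : GL (Fin 4) F) (v : Fin 4 → F) : Fin 4 → F :=
  (g : Matrix (Fin 4) (Fin 4) F).mulVec v

theorem act_mul (g h : GL (Fin 4) F) (v : Fin 4 → F) : act (g * h) v = act g (act h v) := by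
  simp [act, Matrix.mulVec_mulVec]

theorem act_one (v : Fin 4 → F) : act (1 : GL (Fin 4) F) v = v := by simp [act]

theorem act_inv_act (g : GL (Fin 4) F) (v : Fin 4 → F) : act g⁻¹ (act g v) = v := by
  rw [← act_mul, inv_mul_cancel, act_one]

theorem act_act_inv (g : GL (Fin 4) F) (v : Fin 4 → F) : act g (act g⁻¹ v) = v := by
  rw [← act_mul, mul_inv_cancel, act_one]

theorem act_zero (g : GL (Fin 4) F) : act g 0 = 0 := by simp [act]

theorem act_ne_zero (g : GL (Fin 4) F) {v : Fin 4 → F} (hv : v ≠ 0) : act g v ≠ 0 := by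
  intro h
  apply hv
  have := congrArg (act g⁻¹) h
  rwa [act_inv_act, act_zero] at this

theorem gl_ext (g h : GL (Fin 4) F)
    (h0 : act g (vec 1) = act h (vec 1)) (h1 : act g (vec 2) = act h (vec 2))
    (h4 : act g (vec 4) = act h (vec 4)) (h8 : act g (vec 8) = act h (vec 8)) : g = h :=
  Units.ext (mat_ext _ _ h0 h1 h4 h8)

/-- 2-transitivity on the non-zero vectors -/
def TwoTrans (K : Subgroup (GL (Fin 4) F)) : Prop :=
  ∀ v w v' w' : Fin 4 → F, v ≠ 0 → w ≠ 0 → v ≠ w → v' ≠ 0 → w' ≠ 0 → v' ≠ w' →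
    ∃ g ∈ K, act g v = v' ∧ act g w = w'

theorem twoTrans_core (K : Subgroup (GL (Fin 4) F)) (u x1 : Fin 4 → F)
    (hT : ∀ y : Fin 4 → F, y ≠ 0 → ∃ t ∈ K, act t u = y)
    (hS : ∀ y : Fin 4 → F, y ≠ 0 → y ≠ u → ∃ h ∈ K, act h u = u ∧ act h x1 = y) :
    TwoTrans K := by
  have key : ∀ v w : Fin 4 → F, v ≠ 0 → w ≠ 0 → v ≠ w →
      ∃ g ∈ K, act g u = v ∧ act g x1 = w := by
    intro v w hv hw hvw
    obtain ⟨t, ht, htu⟩ := hT v hv
    have hy0 : act t⁻¹ w ≠ 0 := act_ne_zero _ hw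
    have hyu : act t⁻¹ w ≠ u := by
      intro h
      apply hvw
      rw [← htu, ← h, act_act_inv]
    obtain ⟨h, hh, hhu, hhx⟩ := hS _ hy0 hyu
    refine ⟨t * h, K.mul_mem ht hh, ?_, ?_⟩
    · rw [act_mul, hhu, htu]
    · rw [act_mul, hhx, act_act_inv]
  intro v w v' w' hv hw hvw hv' hw' hvw'
  obtain ⟨g, hg, hgu, hgx⟩ := key v w hv hw hvw
  obtain ⟨g', hg', hgu', hgx'⟩ := key v' w' hv' hw' hvw'
  refine ⟨g' * g⁻¹, K.mul_mem hg' (K.inv_mem hg), ?_, ?_⟩
  · rw [act_mul, ← hgu, act_inv_act, hgu']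
  · rw [act_mul, ← hgx, act_inv_act, hgx']

theorem matOf_mul_one (h2 : (1 : F) + 1 = 0) (c d : ℕ) (h : ∀ x < 16, actC c (actC d x) = x) :
    (matOf c : Matrix (Fin 4) (Fin 4) F) * matOf d = 1 := by
  apply mat_ext <;>
    rw [← Matrix.mulVec_mulVec, matOf_mulVec h2, matOf_mulVec h2, Matrix.one_mulVec,
      h _ (by norm_num)]

/-- the fixed element of order 7 -/
def B0 (h2 : (1 : F) + 1 = 0) : GL (Fin 4) F where
  val := matOf b0c
  inv := matOf b0ic
  val_inv := matOf_mul_one h2 _ _ b0_inv1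
  inv_val := matOf_mul_one h2 _ _ b0_inv2

theorem act_B0 (h2 : (1 : F) + 1 = 0) (x : ℕ) : act (B0 h2) (vec x) = vec (actC b0c x) :=
  matOf_mulVec h2 b0c x

theorem act_B0_pow (h2 : (1 : F) + 1 = 0) (k : ℕ) :
    ∀ x : ℕ, act (B0 h2 ^ k) (vec x) = vec ((actC b0c)^[k] x) := by
  induction k with
  | zero => intro x; simp [act_one]
  | succ k ih =>
    intro x
    rw [pow_succ, act_mul, act_B0, ih, Function.iterate_succ_apply]

theorem B0_pow7 (h2 : (1 : F) + 1 = 0) : B0 h2 ^ 7 = 1 := by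
  apply gl_ext <;> rw [act_B0_pow, act_one, b0_pow7 _ (by norm_num)]

theorem B0_ne_one (h2 : (1 : F) + 1 = 0) : B0 h2 ≠ 1 := by
  intro h
  have h1 := act_B0 h2 1
  rw [h, act_one] at h1
  exact b0_ne (vec_inj (actC_lt _ _) (by norm_num) h1.symm)

theorem orderOf_B0 (h2 : (1 : F) + 1 = 0) : orderOf (B0 h2) = 7 := by
  have : Fact (Nat.Prime 7) := ⟨by norm_num⟩
  exact orderOf_eq_prime (B0_pow7 h2) (B0_ne_one h2)

/-- the group element of a word -/
def gW (b a : GL (Fin 4) F) : List Bool → GL (Fin 4) F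
  | [] => 1
  | l :: w => gW b a w * (if l then a else b)

theorem gW_mem (K : Subgroup (GL (Fin 4) F)) {b a : GL (Fin 4) F} (hb : b ∈ K) (ha : a ∈ K)
    (w : List Bool) : gW b a w ∈ K := by
  induction w with
  | nil => exact K.one_mem
  | cons l w ih =>
    refine K.mul_mem ih ?_
    cases l
    · simpa using hb
    · simpa using ha

theorem act_gW {b a : GL (Fin 4) F} {c : ℕ}
    (hb : ∀ x, act b (vec x) = vec (actC b0c x)) (ha : ∀ x, act a (vec x) = vec (actC c x))
    (w : List Bool) : ∀ x : ℕ, act (gW b a w) (vec x) = vec (evalW c w x) := by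
  induction w with
  | nil => intro x; simp [gW, evalW, act_one]
  | cons l w ih =>
    intro x
    rw [gW, evalW, act_mul]
    cases l
    · simp only [Bool.false_eq_true, if_false]
      rw [hb, ih]
    · simp only [if_true]
      rw [ha, ih]

theorem evalW_lt (c : ℕ) (w : List Bool) : ∀ x : ℕ, x < 16 → evalW c w x < 16 := by
  induction w with
  | nil => intro x hx; simpa [evalW] using hx
  | cons l w ih =>
    intro x _
    rw [evalW]
    apply ih
    cases l
    · simpa using actC_lt _ _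
    · simpa using actC_lt _ _

/-- a subgroup containing `B0` and an element of order 5 is 2-transitive -/
theorem twoTrans_main [Fintype F] (hF : Fintype.card F = 2) (h2 : (1 : F) + 1 = 0)
    (K : Subgroup (GL (Fin 4) F)) (hB : B0 h2 ∈ K) (a : GL (Fin 4) F) (ha : a ∈ K)
    (ha5 : a ^ 5 = 1) (ha1 : a ≠ 1) : TwoTrans K := by
  obtain ⟨c, hc, hact⟩ := exists_code hF h2 (a : Matrix (Fin 4) (Fin 4) F)
  have hact' : ∀ x, act a (vec x) = vec (actC c x) := hact
  have hpw : ∀ x, x < 16 → pw5 c x = x := by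
    intro x hx
    have h : act (a ^ 5) (vec x) = vec x := by rw [ha5, act_one]
    have e : a ^ 5 = a * (a * (a * (a * a))) := by
      rw [pow_succ, pow_succ, pow_succ, pow_succ, pow_one]
      simp only [mul_assoc]
    rw [e, act_mul, act_mul, act_mul, act_mul, hact', hact', hact', hact', hact'] at h
    exact vec_inj (actC_lt _ _) hx h
  have hne : ¬ (actC c 1 = 1 ∧ actC c 2 = 2 ∧ actC c 4 = 4 ∧ actC c 8 = 8) := by
    rintro ⟨e1, e2, e4, e8⟩
    apply ha1
    apply gl_ext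
    · rw [hact', act_one, e1]
    · rw [hact', act_one, e2]
    · rw [hact', act_one, e4]
    · rw [hact', act_one, e8]
  have ho : ord5 c = true := by
    have e : (actC c 1 == 1 && actC c 2 == 2 && actC c 4 == 4 && actC c 8 == 8) = false := by
      rw [Bool.eq_false_iff]
      intro h
      simp only [Bool.and_eq_true, beq_iff_eq] at h
      exact hne ⟨h.1.1.1, h.1.1.2, h.1.2, h.2⟩
    unfold ord5
    rw [e, hpw 1 (by norm_num), hpw 2 (by norm_num), hpw 4 (by norm_num), hpw 8 (by norm_num)]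
    rfl
  obtain ⟨w, hw⟩ := cert_all c hc ho
  simp only [cert, Bool.and_eq_true, bne_iff_ne, ne_eq, beq_iff_eq] at hw
  obtain ⟨⟨hw1, hw2⟩, hw3⟩ := hw
  have hgK : gW (B0 h2) a w ∈ K := gW_mem K hB ha w
  have hgact := act_gW (act_B0 h2) hact' w
  have hz : evalW c w x1C < 16 := evalW_lt c w x1C (by decide)
  have hu16 : uC < 16 := by decide
  have hfixpow : ∀ k : ℕ, act (B0 h2 ^ k) (vec uC) = (vec uC : Fin 4 → F) := by
    intro k
    rw [act_B0_pow, Function.iterate_fixed b0_fix]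
  have hS : ∀ y : Fin 4 → F, y ≠ 0 → y ≠ vec uC →
      ∃ h ∈ K, act h (vec uC) = vec uC ∧ act h (vec x1C) = y := by
    intro y hy0 hyu
    obtain ⟨m, hm, rfl⟩ := vec_surj hF y
    have hm0 : m ≠ 0 := by
      rintro rfl
      exact hy0 vec_zero
    have hmu : m ≠ uC := by
      rintro rfl
      exact hyu rfl
    rcases b0_orb1 m hm hm0 hmu with ⟨k, _, e⟩ | hin
    · refine ⟨B0 h2 ^ k, K.pow_mem hB k, hfixpow k, ?_⟩
      rw [act_B0_pow, e]
    · obtain ⟨k, _, e⟩ := b0_orb2 _ hz m hm hw3 hin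
      refine ⟨B0 h2 ^ k * gW (B0 h2) a w, K.mul_mem (K.pow_mem hB k) hgK, ?_, ?_⟩
      · rw [act_mul, hgact, hw2, hfixpow]
      · rw [act_mul, hgact, act_B0_pow, e]
  have hT : ∀ y : Fin 4 → F, y ≠ 0 → ∃ t ∈ K, act t (vec uC) = y := by
    intro y hy0
    by_cases hy : y = vec uC
    · exact ⟨1, K.one_mem, by rw [act_one, hy]⟩
    · have hy'0 : act a (vec uC) ≠ (0 : Fin 4 → F) :=
        act_ne_zero a (vec_ne_zero hu16 (by decide))
      have hy'u : act a (vec uC) ≠ (vec uC : Fin 4 → F) := by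
        rw [hact']
        intro h
        exact hw1 (vec_inj (actC_lt _ _) hu16 h)
      obtain ⟨h1, hh1, _, h1x⟩ := hS _ hy'0 hy'u
      obtain ⟨h3, hh3, _, h3x⟩ := hS y hy0 hy
      refine ⟨h3 * h1⁻¹ * a, K.mul_mem (K.mul_mem hh3 (K.inv_mem hh1)) ha, ?_⟩
      rw [act_mul, act_mul, ← h1x, act_inv_act, h3x]
  exact twoTrans_core K (vec uC) (vec x1C) hT hS

end

/-- conjugating an element of prime order `p` into the cyclic group of another, when `p²`
does not divide the group order -/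
theorem exists_conj_mem_zpowers {G : Type*} [Group G] [Finite G] (p : ℕ) [hp : Fact p.Prime]
    (hG : ¬ p ^ 2 ∣ Nat.card G) (x y : G) (hx : orderOf x = p) (hy : orderOf y = p) :
    ∃ g : G, y ∈ Subgroup.zpowers (g * x * g⁻¹) := by
  have hsyl : ∀ (Q : Sylow p G) (z : G), orderOf z = p → Subgroup.zpowers z ≤ (Q : Subgroup G) →
      (Q : Subgroup G) = Subgroup.zpowers z := by
    intro Q z hz hle
    obtain ⟨n, hn⟩ := IsPGroup.iff_card.mp Q.isPGroup'
    have hzc : Nat.card (Subgroup.zpowers z) = p := by rw [Nat.card_zpowers, hz]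
    have hdvd : p ∣ Nat.card (Q : Subgroup G) := by
      have := Subgroup.card_dvd_of_le hle
      rwa [hzc] at this
    have hQG : Nat.card (Q : Subgroup G) ∣ Nat.card G := Subgroup.card_subgroup_dvd_card _
    have hn1 : n = 1 := by
      rcases Nat.lt_trichotomy n 1 with h | h | h
      · have h0 : n = 0 := by omega
        rw [hn, h0, pow_zero] at hdvd
        exact absurd (Nat.dvd_one.mp hdvd) hp.out.one_lt.ne'
      · exact h
      · exfalso
        apply hG
        rw [hn] at hQG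
        exact dvd_trans (pow_dvd_pow p h) hQG
    rw [hn1, pow_one] at hn
    symm
    apply Subgroup.eq_of_le_of_card_ge hle
    rw [hzc, hn]
  have hpgx : IsPGroup p (Subgroup.zpowers x) := by
    apply IsPGroup.of_card (n := 1)
    rw [Nat.card_zpowers, hx, pow_one]
  have hpgy : IsPGroup p (Subgroup.zpowers y) := by
    apply IsPGroup.of_card (n := 1)
    rw [Nat.card_zpowers, hy, pow_one]
  obtain ⟨Q1, hQ1⟩ := hpgx.exists_le_sylow
  obtain ⟨Q2, hQ2⟩ := hpgy.exists_le_sylow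
  have e1 := hsyl Q1 x hx hQ1
  have e2 := hsyl Q2 y hy hQ2
  obtain ⟨g, hg⟩ := MulAction.exists_smul_eq G Q2 Q1
  -- `g • Q2 = Q1`, so `g⁻¹ x g ∈ Q2 = ⟨y⟩`
  have hxm : x ∈ ((g • Q2 : Sylow p G) : Subgroup G) := by
    rw [hg]; exact hQ1 (Subgroup.mem_zpowers x)
  rw [Sylow.smul_def, Sylow.pointwise_smul_def, Subgroup.mem_pointwise_smul_iff_inv_smul_mem,
    e2] at hxm
  have hxm' : g⁻¹ * x * g⁻¹⁻¹ ∈ Subgroup.zpowers y := by
    simpa [MulAut.smul_def, MulAut.conj_apply] using hxm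
  refine ⟨g⁻¹, ?_⟩
  have hord : orderOf (g⁻¹ * x * g⁻¹⁻¹) = p := by
    rw [← hx]
    exact (MulAut.conj g⁻¹).orderOf_eq x
  have hle : Subgroup.zpowers (g⁻¹ * x * g⁻¹⁻¹) ≤ Subgroup.zpowers y := by
    rw [Subgroup.zpowers_le]; exact hxm'
  have heq : Subgroup.zpowers (g⁻¹ * x * g⁻¹⁻¹) = Subgroup.zpowers y := by
    apply Subgroup.eq_of_le_of_card_ge hle
    rw [Nat.card_zpowers, Nat.card_zpowers, hord, hy]
  rw [heq]
  exact Subgroup.mem_zpowers y

section

variable {F : Type*} [Field F]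

theorem card_GL4 [Fintype F] (hF : Fintype.card F = 2) : Nat.card (GL (Fin 4) F) = 20160 := by
  rw [Matrix.card_GL_field, hF]
  simp [Fin.prod_univ_four]

/-- every subgroup of order divisible by 5 and 7 is 2-transitive on non-zero vectors -/
theorem twoTrans_of_dvd [Fintype F] (hF : Fintype.card F = 2) (H : Subgroup (GL (Fin 4) F))
    (h5 : 5 ∣ Nat.card H) (h7 : 7 ∣ Nat.card H) : TwoTrans H := by
  classical
  have h2 : (1 : F) + 1 = 0 := by
    have := FiniteField.cast_card_eq_zero F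
    rw [hF] at this
    rw [one_add_one_eq_two]
    exact_mod_cast this
  have : Fact (Nat.Prime 5) := ⟨by norm_num⟩
  have : Fact (Nat.Prime 7) := ⟨by norm_num⟩
  obtain ⟨a, ha⟩ := exists_prime_orderOf_dvd_card' 5 h5
  obtain ⟨b, hb⟩ := exists_prime_orderOf_dvd_card' 7 h7
  have hb' : orderOf (b : GL (Fin 4) F) = 7 := by rw [Subgroup.orderOf_coe, hb]
  have ha' : orderOf (a : GL (Fin 4) F) = 5 := by rw [Subgroup.orderOf_coe, ha]
  have hG : ¬ 7 ^ 2 ∣ Nat.card (GL (Fin 4) F) := by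
    rw [card_GL4 hF]; norm_num
  obtain ⟨g, hg⟩ := exists_conj_mem_zpowers 7 hG (b : GL (Fin 4) F) (B0 h2) hb' (orderOf_B0 h2)
  -- the conjugate subgroup
  have hK : TwoTrans (H.map (MulAut.conj g).toMonoidHom) := by
    apply twoTrans_main hF h2 _ _ (g * a * g⁻¹)
    · exact Subgroup.mem_map.mpr ⟨a, a.2, by simp [MulAut.conj_apply]⟩
    · rw [conj_pow, ← ha', pow_orderOf_eq_one]; group
    · intro h
      have : (a : GL (Fin 4) F) = 1 := by
        have h' := congrArg (fun t => g⁻¹ * t * g) h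
        simpa [mul_assoc] using h'
      rw [this, orderOf_one] at ha'
      omega
    · have hle : Subgroup.zpowers (g * (b : GL (Fin 4) F) * g⁻¹) ≤
          H.map (MulAut.conj g).toMonoidHom := by
        rw [Subgroup.zpowers_le]
        exact Subgroup.mem_map.mpr ⟨b, b.2, by simp [MulAut.conj_apply]⟩
      exact hle hg
  intro v w v' w' hv hw hvw hv' hw' hvw'
  have hinj : ∀ s t : Fin 4 → F, act g s = act g t → s = t := by
    intro s t h
    have := congrArg (act g⁻¹) h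
    rwa [act_inv_act, act_inv_act] at this
  obtain ⟨k, hk, hk1, hk2⟩ := hK (act g v) (act g w) (act g v') (act g w')
    (act_ne_zero g hv) (act_ne_zero g hw) (fun h => hvw (hinj _ _ h))
    (act_ne_zero g hv') (act_ne_zero g hw') (fun h => hvw' (hinj _ _ h))
  obtain ⟨h, hh, rfl⟩ := Subgroup.mem_map.mp hk
  refine ⟨h, hh, ?_, ?_⟩
  · apply hinj
    rw [← hk1]
    simp only [MulEquiv.coe_toMonoidHom, MulAut.conj_apply]
    rw [act_mul, act_mul, act_inv_act]
  · apply hinj
    rw [← hk2]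
    simp only [MulEquiv.coe_toMonoidHom, MulAut.conj_apply]
    rw [act_mul, act_mul, act_inv_act]

end

end Cfsg.Agent.Lib.Helper60.GL42
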